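import Cfsg.Agent.FieldExtMax.Basic

/-!
Root elements attached to an alternating form over an extension field `L/F`, inside a group of
`F`-linear isometries of a trace of the form which contains the `L`-linear isometries.
-/

set_option autoImplicit false

namespace CfsgLib.FormExt91

open Module CfsgLib.FieldExtMax

variable {F L V : Type*} [Field F] [Field L] [Algebra F L] [AddCommGroup V] [Module F V]
  [Module L V] [IsScalarTower F L V]

/-- `x ↦ τ (h x a) • a`. -/
def root (h : LinearMap.BilinForm L V) (τ : L →ₗ[F] L) (a : V) : V →ₗ[F] V :=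
  ((LinearMap.toSpanSingleton L V a).restrictScalars F) ∘ₗ τ ∘ₗ ((h.flip a).restrictScalars F)

@[simp] lemma root_apply (h : LinearMap.BilinForm L V) (τ : L →ₗ[F] L) (a x : V) :
    root h τ a x = τ (h x a) • a := rfl

/-- `x ↦ σ (h x b) • a + σ' (h x a) • b`. -/
def mixed (h : LinearMap.BilinForm L V) (σ σ' : L →ₗ[F] L) (a b : V) : V →ₗ[F] V :=
  ((LinearMap.toSpanSingleton L V a).restrictScalars F) ∘ₗ σ ∘ₗ ((h.flip b).restrictScalars F) +
    ((LinearMap.toSpanSingleton L V b).restrictScalars F) ∘ₗ σ' ∘ₗ ((h.flip a).restrictScalars F)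

@[simp] lemma mixed_apply (h : LinearMap.BilinForm L V) (σ σ' : L →ₗ[F] L) (a b x : V) :
    mixed h σ σ' a b x = σ (h x b) • a + σ' (h x a) • b := rfl

/-- Multiplication by `l`. -/
def mulL (F : Type*) {L : Type*} [Field F] [Field L] [Algebra F L] (l : L) : L →ₗ[F] L :=
  (LinearMap.lsmul L L l).restrictScalars F

@[simp] lemma mulL_apply (l x : L) : mulL F l x = l * x := rfl

/-- The standing hypotheses. -/
structure Hyp (h : LinearMap.BilinForm L V) (lam : L →ₗ[F] F) (M : Subgroup (V ≃ₗ[F] V)) :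
    Prop where
  alt : ∀ x, h x x = 0
  nondeg : ∀ x, (∀ y, h x y = 0) → x = 0
  lam_ne : lam ≠ 0
  sp : ∀ e : V ≃ₗ[L] V, (∀ x y, h (e x) (e y) = h x y) → e.restrictScalars F ∈ M
  iso : ∀ g ∈ M, ∀ x y, lam (h (g x) (g y)) = lam (h x y)

variable {h : LinearMap.BilinForm L V} {lam : L →ₗ[F] F} {M : Subgroup (V ≃ₗ[F] V)}

namespace Hyp

lemma skew (H : Hyp h lam M) (x y : V) : h y x = -h x y := by
  have := H.alt (x + y)
  simp only [map_add, LinearMap.add_apply, H.alt, zero_add, add_zero] at this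
  exact eq_neg_of_add_eq_zero_left this

lemma symm_zero (H : Hyp h lam M) {x y : V} (hxy : h x y = 0) : h y x = 0 := by
  rw [H.skew x y, hxy, neg_zero]

lemma lam_ext (H : Hyp h lam M) {u v : L} (huv : ∀ s, lam (s * u) = lam (s * v)) : u = v := by
  by_contra hne
  refine H.lam_ne (LinearMap.ext fun t => ?_)
  have h1 := huv (t * (u - v)⁻¹)
  rw [← sub_eq_zero, ← map_sub, ← mul_sub, inv_mul_cancel_right₀ (sub_ne_zero.2 hne)] at h1
  simpa using h1

lemma eq_zero_of_lam (H : Hyp h lam M) {u : L} (hu : ∀ s, lam (s * u) = 0) : u = 0 :=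
  H.lam_ext (v := 0) fun s => by rw [hu, mul_zero, map_zero]

lemma exists_one (H : Hyp h lam M) {a : V} (ha : a ≠ 0) : ∃ a', h a' a = 1 := by
  obtain ⟨y, hy⟩ : ∃ y, h y a ≠ 0 := by
    by_contra! h0
    exact ha (H.nondeg a fun y => H.symm_zero (h0 y))
  exact ⟨(h y a)⁻¹ • y, by rw [map_smul, LinearMap.smul_apply, smul_eq_mul, inv_mul_cancel₀ hy]⟩

/-- A vector orthogonal to `a^⊥` lies on the line of `a`. -/
lemma eq_smul_of_orth (H : Hyp h lam M) {a y : V} (ha : a ≠ 0)
    (hy : ∀ z, h z a = 0 → h z y = 0) : ∃ c : L, y = c • a := by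
  obtain ⟨a', ha'⟩ := H.exists_one ha
  refine ⟨h a' y, sub_eq_zero.1 (H.nondeg _ fun z => H.symm_zero ?_)⟩
  have h1 := hy (z - h z a • a') (by simp [ha'])
  simp only [map_sub, map_smul, LinearMap.sub_apply, LinearMap.smul_apply, smul_eq_mul] at h1 ⊢
  linear_combination h1

/-- Two independent orthogonal vectors extend to a pairing. -/
lemma exists_pair (H : Hyp h lam M) {a b : V} (ha : a ≠ 0) (hb : ∀ c : L, b ≠ c • a) :
    ∃ z, h z a = 0 ∧ h b z = 1 := by
  obtain ⟨z, hz, hzb⟩ : ∃ z, h z a = 0 ∧ h z b ≠ 0 := by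
    by_contra! h0
    obtain ⟨c, hc⟩ := H.eq_smul_of_orth ha h0
    exact hb c hc
  have hbz : h b z ≠ 0 := fun h0 => hzb (H.symm_zero h0)
  exact ⟨(h b z)⁻¹ • z, by simp [hz], by simp [inv_mul_cancel₀ hbz]⟩

/-- The root element of an `L`-linear transvection. -/
lemma exists_transv (H : Hyp h lam M) (c : L) (d : V) :
    ∃ e : V ≃ₗ[L] V, e.restrictScalars F ∈ M ∧ ∀ x, e x = x + (c * h x d) • d := by
  have hd : (c • h.flip d) d = 0 := by simp [H.alt]
  have he : ∀ x, LinearEquiv.transvection hd x = x + (c * h x d) • d := fun x => by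
    rw [LinearEquiv.transvection.apply]; simp
  refine ⟨LinearEquiv.transvection hd, H.sp _ fun x y => ?_, he⟩
  rw [he, he]
  simp only [map_add, map_smul, LinearMap.add_apply, LinearMap.smul_apply, smul_eq_mul, H.alt,
    H.skew y d]
  ring

lemma inM_root_mul (H : Hyp h lam M) (l : L) (a : V) : InM M (root h (mulL F l) a) := by
  obtain ⟨e, he, hex⟩ := H.exists_transv l a
  exact ⟨_, he, fun x => hex x⟩

/-- Root coefficients polarise to mixed root elements. -/
lemma inM_mixed_of_root (H : Hyp h lam M) {τ : L →ₗ[F] L} {a b : V} (hab : h a b = 0)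
    (hall : ∀ a, InM M (root h τ a)) : InM M (mixed h τ τ a b) := by
  have hba := H.symm_zero hab
  refine ((hall (a + b)).add (((hall a).neg fun y => by simp [H.alt]).add
    ((hall b).neg fun y => by simp [H.alt]) fun y => by simp [hba]) fun y => ?_).congr fun y => ?_
  · simp [H.alt, hab, hba, map_add]
  · simp [map_add, add_smul, smul_add]
    abel

lemma inM_mixed_mul (H : Hyp h lam M) {a b : V} (hab : h a b = 0) (l : L) :
    InM M (mixed h (mulL F l) (mulL F l) a b) := H.inM_mixed_of_root hab (H.inM_root_mul l)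

/-- Transitivity on non-zero vectors. -/
lemma exists_map_vec (H : Hyp h lam M) {a b : V} (ha : a ≠ 0) (hb : b ≠ 0) :
    ∃ e : V ≃ₗ[L] V, e.restrictScalars F ∈ M ∧ e a = b ∧ ∀ x y, h (e x) (e y) = h x y := by
  have key : ∀ u v : V, h u v ≠ 0 → ∃ e : V ≃ₗ[L] V, e.restrictScalars F ∈ M ∧ e u = v ∧
      ∀ x y, h (e x) (e y) = h x y := by
    intro u v huv
    obtain ⟨e, he, hex⟩ := H.exists_transv (h u v)⁻¹ (v - u)
    refine ⟨e, he, ?_, fun x y => ?_⟩
    · rw [hex, map_sub, H.alt, sub_zero, inv_mul_cancel₀ huv, one_smul, add_sub_cancel]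
    · rw [hex, hex]
      simp only [map_add, map_smul, LinearMap.add_apply, LinearMap.smul_apply, smul_eq_mul, H.alt,
        H.skew y (v - u)]
      ring
  obtain ⟨z, hza, hzb⟩ : ∃ z, h a z ≠ 0 ∧ h b z ≠ 0 := by
    obtain ⟨a', ha'⟩ := H.exists_one ha
    obtain ⟨b', hb'⟩ := H.exists_one hb
    have h1 : h a a' = -1 := by rw [H.skew a' a, ha']
    have h2 : h b b' = -1 := by rw [H.skew b' b, hb']
    by_cases h3 : h b a' = 0
    · by_cases h4 : h a b' = 0
      · exact ⟨a' + b', by simp [map_add, h1, h4], by simp [map_add, h2, h3]⟩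
      · exact ⟨b', h4, by simp [h2]⟩
    · exact ⟨a', by simp [h1], h3⟩
  obtain ⟨e₁, he₁, h₁, p₁⟩ := key a z hza
  obtain ⟨e₂, he₂, h₂, p₂⟩ := key z b (by rw [H.skew b z, neg_ne_zero]; exact hzb)
  exact ⟨e₁.trans e₂, M.mul_mem he₂ he₁, by simp [h₁, h₂], fun x y => by simp [p₁, p₂]⟩

/-- A root coefficient at one non-zero vector is one at all vectors. -/
lemma inM_root_all (H : Hyp h lam M) {τ : L →ₗ[F] L} {a₀ : V} (ha₀ : a₀ ≠ 0)
    (hin : InM M (root h τ a₀)) (a : V) : InM M (root h τ a) := by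
  rcases eq_or_ne a 0 with rfl | ha
  · exact InM.zero.congr fun y => by simp
  obtain ⟨e, he, hea, hiso⟩ := H.exists_map_vec ha₀ ha
  refine (hin.conj he).congr fun y => ?_
  change τ (h y a) • a = e (τ (h (e.symm y) a₀) • a₀)
  rw [map_smul, hea]
  congr 2
  rw [← hea, ← hiso (e.symm y) a₀, e.apply_symm_apply]

end Hyp

end CfsgLib.FormExt91
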