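import Cfsg.Agent.FieldExtMax.Intersection
import Cfsg.Agent.FormExt91.Basic

/-!
If every root coefficient in `M` is `L`-linear, then every element of `M` maps `L`-lines to
`L`-lines.
-/

set_option autoImplicit false

namespace CfsgLib.FormExt91

open Module CfsgLib.FieldExtMax

variable {F L V : Type*} [Field F] [Field L] [Algebra F L] [AddCommGroup V] [Module F V]
  [Module L V] [IsScalarTower F L V]

/-- Only `L`-linear root coefficients. -/
def OnlyLinear (h : LinearMap.BilinForm L V) (M : Subgroup (V ≃ₗ[F] V)) : Prop :=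
  ∀ (τ : L →ₗ[F] L) (a : V), a ≠ 0 → InM M (root h τ a) → ∃ l : L, τ = mulL F l

variable {h : LinearMap.BilinForm L V} {lam : L →ₗ[F] F} {M : Subgroup (V ≃ₗ[F] V)}

/-- A derivation of a finite field is zero. -/
lemma derivation_eq_zero [Finite L] (D : L → L) (hD : ∀ x y, D (x * y) = x * D y + D x * y)
    (x : L) : D x = 0 := by
  have : Fintype L := Fintype.ofFinite L
  have h1 : D 1 = 0 := by
    have := hD 1 1
    rw [mul_one, one_mul, mul_one] at this
    simpa using this
  have hpow : ∀ n : ℕ, D (x ^ n) = (n : L) * x ^ (n - 1) * D x := by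
    intro n
    induction n with
    | zero => simp [h1]
    | succ n ih =>
      rw [pow_succ, hD, ih, Nat.add_sub_cancel]
      rcases n with _ | n
      · simp
      · rw [Nat.add_sub_cancel, pow_succ]; push_cast; ring
  have h2 := hpow (Fintype.card L)
  rw [FiniteField.pow_card, Nat.cast_card_eq_zero] at h2
  simpa using h2

namespace Hyp

variable [Finite L] [FiniteDimensional F L]

lemma lam_repr (H : Hyp h lam M) (θ : L →ₗ[F] F) : ∃ s : L, ∀ x, θ x = lam (s * x) := by
  let Φ : L →ₗ[F] Dual F L :=
    { toFun := fun s => lam ∘ₗ mulL F s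
      map_add' := fun a b => LinearMap.ext fun x => by simp [add_mul]
      map_smul' := fun c a => LinearMap.ext fun x => by simp }
  have hinj : Function.Injective Φ := fun a b hab => H.lam_ext fun s => by
    have := LinearMap.congr_fun hab s
    simpa [Φ, mul_comm] using this
  obtain ⟨s, hs⟩ := (LinearMap.injective_iff_surjective_of_finrank_eq_finrank
    Subspace.dual_finrank_eq.symm).1 hinj θ
  exact ⟨s, fun x => by rw [← hs]; rfl⟩

/-- A root element along the line of `a` is an `L`-linear one. -/
lemma exists_root_eq (H : Hyp h lam M) (hlin : OnlyLinear h M) {a : V} (ha : a ≠ 0)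
    {N : V →ₗ[F] V} (hN : InM M N) (hr : ∀ x, ∃ c : L, N x = c • a)
    (hk : ∀ l : L, N (l • a) = 0) : ∃ μ : L, ∀ x, N x = (μ * h x a) • a := by
  obtain ⟨e, he, hey⟩ := hN
  obtain ⟨a', ha'⟩ := H.exists_one ha
  have haa' : h a a' = -1 := by rw [H.skew a' a, ha']
  have hperp : ∀ u, h u a = 0 → N u = 0 := by
    intro u hu
    obtain ⟨c, hc⟩ := hr u
    suffices c = 0 by simp [hc, this]
    refine H.eq_zero_of_lam fun s => ?_
    obtain ⟨d, hd⟩ := hr ((-s) • a')
    have h1 := H.iso e he u ((-s) • a')
    rw [hey, hey, hc, hd] at h1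
    simp only [map_add, map_smul, LinearMap.add_apply, LinearMap.smul_apply, smul_eq_mul, haa', hu,
      H.alt, mul_zero, add_zero, mul_neg, neg_mul, mul_one, neg_neg, map_neg] at h1
    simp only [mul_add, add_mul, mul_neg, neg_mul, map_add, map_neg, mul_comm _ s] at h1
    linear_combination h1
  let τ : L →ₗ[F] L :=
    { toFun := fun t => h a' (N (t • a'))
      map_add' := fun s t => by simp [add_smul]
      map_smul' := fun c t => by simp [smul_assoc, LinearMap.map_smul_of_tower] }
  have hτ : ∀ x, N x = τ (h x a) • a := by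
    intro x
    have h1 : N (x - h x a • a') = 0 := hperp _ (by simp [ha'])
    rw [map_sub, sub_eq_zero] at h1
    obtain ⟨c, hc⟩ := hr (h x a • a')
    rw [h1]
    simp [τ, hc, ha']
  obtain ⟨μ, hμ⟩ := hlin τ a ha ⟨e, he, fun y => by rw [root_apply, ← hτ, hey]⟩
  exact ⟨μ, fun x => by rw [hτ, hμ, mulL_apply]⟩

/-- An element fixing the line of `a` pointwise and trivial above it is `L`-linear there. -/
lemma linear_on_perp (H : Hyp h lam M) (hlin : OnlyLinear h M) {a : V} (ha : a ≠ 0)
    {N : V →ₗ[F] V} (hN : InM M N) (hk : ∀ l : L, N (l • a) = 0)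
    (hr : ∀ u, h u a = 0 → ∃ c : L, N u = c • a) {z : V} (hz : h z a = 0) (l : L) :
    N (l • z) = l • N z := by
  obtain ⟨e, he, hey⟩ := hN
  obtain ⟨a', ha'⟩ := H.exists_one ha
  have haz := H.symm_zero hz
  have hea : ∀ s : L, e (s • a) = s • a := fun s => by rw [hey, hk, add_zero]
  have hesa : ∀ s : L, e.symm (s • a) = s • a := fun s => by rw [e.symm_apply_eq, hea]
  have hNperp : ∀ x, h (N x) a = 0 := fun x => H.eq_zero_of_lam fun s => by
    have h1 := H.iso e he x (s • a)
    rw [hea, hey] at h1
    simpa [mul_add] using h1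
  choose φ hφ using fun s : L => hr (s • z) (by simp [hz])
  have hesz : ∀ s : L, e.symm (s • z) = s • z - φ s • a := fun s => by
    rw [e.symm_apply_eq, hey, map_sub, hk, sub_zero, hφ, sub_add_cancel]
  -- each multiple of `z` gives a relation
  have key : ∀ l : L, ∃ μ : L, ∀ m s : L,
      lam (s * (μ * m)) = lam (φ (l * s) * m) + lam (s * φ (l * m)) := by
    intro l
    have hA : InM M (mixed h (mulL F l) (mulL F l) a z) := H.inM_mixed_mul haz l
    set A := mixed h (mulL F l) (mulL F l) a z with hAdef
    have hAA : ∀ y, A (A y) = 0 := fun y => by simp [A, H.alt, hz, haz]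
    set N1 : V →ₗ[F] V := (e : V →ₗ[F] V) ∘ₗ A ∘ₗ (e⁻¹ : V ≃ₗ[F] V).toLinearMap + -A
    have hN1 : InM M N1 := (hA.conj he).add (hA.neg hAA) fun y => by
      change e (A (e.symm ((-A) y))) = 0
      simp [A, hesa, hesz, H.alt, hz, haz, map_sub]
    have hN1x : ∀ x, N1 x =
        (l * (h (e.symm x) z - h x z) + φ (l * h x a)) • a := by
      intro x
      have h1 : h (e.symm x) a = h x a := by
        have h2 := hNperp (e.symm x)
        have h3 := hey (e.symm x)
        rw [e.apply_symm_apply] at h3
        conv_rhs => rw [h3]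
        simp [h2]
      change e (A (e.symm x)) + -(A x) = _
      simp only [A, mixed_apply, mulL_apply, map_add, hea, h1, hey ((l * h x a) • z), hφ]
      module
    obtain ⟨μ, hμ⟩ := H.exists_root_eq hlin ha hN1 (fun x => ⟨_, hN1x x⟩) fun t => by
      rw [hN1x, hesa]
      have h0 : φ 0 • a = (0 : V) := by rw [← hφ]; simp
      simp [H.alt, haz, h0]
    refine ⟨μ, fun m s => ?_⟩
    have h4 : (μ * m) • a = (l * (h (e.symm (m • a')) z - h (m • a') z) + φ (l * m)) • a := by
      have := hN1x (m • a')
      rw [hμ] at this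
      simpa [ha'] using this
    have h5 := smul_left_injective L ha h4
    have h6 := H.iso e he (e.symm (m • a')) ((l * s) • z)
    rw [e.apply_symm_apply, hey ((l * s) • z), hφ] at h6
    simp only [map_add, map_smul, LinearMap.smul_apply, smul_eq_mul, ha'] at h6
    rw [h5]
    simp only [map_smul, LinearMap.smul_apply, smul_eq_mul]
    generalize h (e.symm (m • a')) z = X at h6 ⊢
    generalize h a' z = W at h6 ⊢
    have a1 : s * (l * (X - m * W) + φ (l * m)) = l * s * X - l * s * (m * W) + s * φ (l * m) := by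
      ring
    rw [a1, map_add, map_sub]
    simp only [mul_add, mul_one, map_add, mul_left_comm m (l * s) W, mul_comm m (φ (l * s))] at h6
    linear_combination -h6
  -- so the map is a derivation
  have hD : ∀ l m : L, φ (l * m) - l * φ m = (φ l - l * φ 1) * m := by
    intro l m
    obtain ⟨μ, hμ⟩ := key l
    obtain ⟨ν, hν⟩ := key 1
    have h1 : ∀ x, φ (l * x) - l * φ x = (μ - l * ν) * x := fun x => H.lam_ext fun s => by
      have e1 := hμ x s
      have e2 := hν x (l * s)
      simp only [one_mul] at e2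
      have a1 : s * (φ (l * x) - l * φ x) = s * φ (l * x) - l * s * φ x := by ring
      have a2 : s * ((μ - l * ν) * x) = s * (μ * x) - l * s * (ν * x) := by ring
      rw [a1, a2, map_sub, map_sub]
      linear_combination -e1 + e2
    have h2 := h1 1
    rw [mul_one, mul_one] at h2
    rw [h1 m, h2]
  have hd := derivation_eq_zero (fun x => φ x - x * φ 1) (fun x y => by
    linear_combination hD x y) l
  rw [hφ, show N z = φ 1 • a by rw [← hφ, one_smul], smul_smul, sub_eq_zero.1 hd]

/-- An element stabilising a line is semilinear on it and above it. -/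
lemma stab_semilinear (H : Hyp h lam M) (hlin : OnlyLinear h M) {g : V ≃ₗ[F] V} (hg : g ∈ M)
    {v : V} (hv : v ≠ 0) {A : L → L} (hA : ∀ s : L, g (s • v) = A s • v) :
    ∃ σ : L → L, (∀ l s, A (l * s) = σ l * A s) ∧
      ∀ u, h u v = 0 → ∀ l : L, ∃ c : L, g (l • u) - σ l • g u = c • v := by
  have hAinj : Function.Injective A := fun s t hst =>
    smul_left_injective L hv (g.injective (by rw [hA, hA, hst]))
  have hAsurj : Function.Surjective A := Finite.injective_iff_surjective.1 hAinj
  have hperp : ∀ u, h u v = 0 → h (g u) v = 0 := fun u hu => H.eq_zero_of_lam fun s => by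
    obtain ⟨t, rfl⟩ := hAsurj s
    have h1 := H.iso g hg u (t • v)
    rw [hA] at h1
    simpa [hu] using h1
  have hperp' : ∀ u, h u v = 0 → h (g.symm u) v = 0 := fun u hu => H.eq_zero_of_lam fun s => by
    have h1 := H.iso g hg (g.symm u) (s • v)
    rw [g.apply_symm_apply, hA] at h1
    simpa [hu] using h1.symm
  have hgs : ∀ s : L, g.symm (A s • v) = s • v := fun s => by rw [g.symm_apply_eq, hA]
  have hroot : ∀ l : L, ∃ μ : L, ∀ x, A (l * h (g.symm x) v) = μ * h x v := by
    intro l
    obtain ⟨μ, hμ⟩ := H.exists_root_eq hlin hv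
      (N := (g : V →ₗ[F] V) ∘ₗ root h (mulL F l) v ∘ₗ (g⁻¹ : V ≃ₗ[F] V).toLinearMap)
      ((H.inM_root_mul l v).conj hg)
      (fun x => ⟨A (l * h (g.symm x) v), by
        change g ((l * h (g.symm x) v) • v) = _
        rw [hA]⟩)
      (fun t => by
        obtain ⟨s, rfl⟩ := hAsurj t
        change g ((l * h (g.symm (A s • v)) v) • v) = 0
        rw [hgs]
        simp [H.alt])
    refine ⟨μ, fun x => smul_left_injective L hv ?_⟩
    have := hμ x
    change g ((l * h (g.symm x) v) • v) = _ at this
    rw [hA] at this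
    exact this
  obtain ⟨v', hv'⟩ := H.exists_one hv
  choose μ hμ using hroot
  have hA0 : A 0 = 0 := smul_left_injective L hv (by simp [← hA])
  have hA1 : A 1 ≠ 0 := fun h0 => one_ne_zero (hAinj (h0.trans hA0.symm))
  have hm : ∀ l s, A (l * s) = μ l * h (g (s • v')) v := fun l s => by
    have := hμ l (g (s • v'))
    simpa [hv'] using this
  refine ⟨fun l => A l / A 1, fun l s => ?_, fun u hu l => ?_⟩
  · have e1 := hm l 1
    have e2 := hm 1 1
    have e3 := hm 1 s
    rw [one_smul, mul_one] at e1 e2
    rw [one_mul] at e3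
    have hk : h (g v') v ≠ 0 := fun h0 => hA1 (by rw [e2, h0, mul_zero])
    have hμ1 : μ 1 ≠ 0 := fun h0 => hA1 (by rw [e2, h0, zero_mul])
    change _ = A l / A 1 * A s
    rw [hm l s, e1, e2, e3]
    field_simp
  · set t := A l / A 1
    obtain ⟨c, hc⟩ := H.eq_smul_of_orth hv (y := g.symm (t • g u) - l • u) fun z hz => by
      have hvz := H.symm_zero hz
      set N := (g : V →ₗ[F] V) ∘ₗ mixed h (mulL F 1) (mulL F 1) v z ∘ₗ
        (g⁻¹ : V ≃ₗ[F] V).toLinearMap with hN
      have hNx : ∀ x, N x = g (h (g.symm x) z • v + h (g.symm x) v • z) := fun x => by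
        change g (mixed h (mulL F 1) (mulL F 1) v z (g.symm x)) = _
        simp
      have hNperp : ∀ x, h x v = 0 → N x = A (h (g.symm x) z) • v := fun x hx => by
        rw [hNx, hperp' x hx, zero_smul, add_zero, hA]
      have h1 := H.linear_on_perp hlin hv ((H.inM_mixed_mul hvz 1).conj hg)
        (fun s => by
          obtain ⟨s, rfl⟩ := hAsurj s
          change N (A s • v) = 0
          rw [hNx, hgs]
          simp [H.alt, hvz])
        (fun x hx => ⟨_, hNperp x hx⟩) (hperp u hu) t
      change N (t • g u) = t • N (g u) at h1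
      rw [hNperp _ (by simp [hperp u hu]), hNperp _ (hperp u hu), smul_smul, g.symm_apply_apply]
        at h1
      have h2 := smul_left_injective L hv h1
      have h3 : A (l * h u z) = t * A (h u z) := by
        have e1 := hm l (h u z)
        have e2 := hm 1 (h u z)
        have e3 := hm l 1
        have e4 := hm 1 1
        rw [one_mul] at e2 e4
        rw [mul_one, one_smul] at e3
        rw [one_smul] at e4
        have hk : h (g v') v ≠ 0 := fun h0 => hA1 (by rw [e4, h0, mul_zero])
        have hμ1 : μ 1 ≠ 0 := fun h0 => hA1 (by rw [e4, h0, zero_mul])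
        change _ = A l / A 1 * A _
        rw [e1, e2, e3, e4]
        field_simp
      have h4 := hAinj (h2.trans h3.symm)
      refine H.symm_zero ?_
      rw [map_sub, LinearMap.sub_apply, h4, map_smul h l u, LinearMap.smul_apply, smul_eq_mul, sub_self]
    refine ⟨-A c, ?_⟩
    have h5 := congrArg g hc
    rw [map_sub, g.apply_symm_apply, hA] at h5
    rw [neg_smul, ← h5, neg_sub]

/-- A semilinear element with a small displacement is trivial on its line. -/
lemma eq_id_of_small (H : Hyp h lam M) (hlin : OnlyLinear h M) (hn : 4 ≤ finrank L V)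
    {g : V ≃ₗ[F] V} (hg : g ∈ M) {v : V} (hv : v ≠ 0) {A : L → L}
    (hA : ∀ s : L, g (s • v) = A s • v) {s₀ : L} (hs₀ : s₀ ≠ 0) (hfix : A s₀ = s₀)
    (hrk : finrank F (LinearMap.range ((g : V →ₗ[F] V) - LinearMap.id)) ≤ finrank F L) (s : L) :
    A s = s := by
  obtain ⟨σ, hσA, hσ⟩ := H.stab_semilinear hlin hg hv hA
  by_cases hσ1 : ∀ l, σ l = l
  · have := hσA (s / s₀) s₀
    rwa [div_mul_cancel₀ s hs₀, hσ1, hfix, div_mul_cancel₀ s hs₀] at this
  exfalso
  push Not at hσ1
  obtain ⟨l, hl⟩ := hσ1
  haveI : FiniteDimensional L V := Module.finite_of_finrank_pos (by omega)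
  haveI : FiniteDimensional F V := FiniteDimensional.trans F L V
  set P : Submodule F V := LinearMap.ker ((h.flip v).restrictScalars F)
  have hP : finrank F P + finrank F L = finrank F V := by
    have h1 := LinearMap.finrank_range_add_finrank_ker ((h.flip v).restrictScalars F)
    obtain ⟨v', hv'⟩ := H.exists_one hv
    have h2 : LinearMap.range ((h.flip v).restrictScalars F) = ⊤ :=
      LinearMap.range_eq_top.2 fun t => ⟨t • v', by simp [hv']⟩
    rw [h2, finrank_top] at h1
    change _ + finrank F P = _ at h1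
    omega
  set N : V →ₗ[F] V := (g : V →ₗ[F] V) - LinearMap.id
  set K : Submodule F V := P ⊓ LinearMap.ker N
  have hK : finrank F P ≤ finrank F K + finrank F L := by
    have h1 := LinearMap.finrank_range_add_finrank_ker (N ∘ₗ P.subtype)
    have h2 : finrank F (LinearMap.range (N ∘ₗ P.subtype)) ≤ finrank F L :=
      (Submodule.finrank_mono (LinearMap.range_comp_le_range _ _)).trans hrk
    have h3 : (LinearMap.ker (N ∘ₗ P.subtype)).map P.subtype = K := by
      rw [LinearMap.ker_comp, Submodule.map_comap_subtype]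
    have h4 := Submodule.finrank_map_subtype_eq P (LinearMap.ker (N ∘ₗ P.subtype))
    rw [h3] at h4
    omega
  set lK : Submodule F V := K.map ((LinearMap.lsmul L V l).restrictScalars F)
  have hgK : ∀ u ∈ K, g u = u := fun u hu => sub_eq_zero.1 (LinearMap.mem_ker.1 hu.2)
  have hdis : K ⊓ lK = ⊥ := by
    rw [eq_bot_iff]
    rintro _ ⟨hx, u, hu, rfl⟩
    change l • u = 0
    change l • u ∈ K at hx
    have huv : h u v = 0 := hu.1
    obtain ⟨c, hc⟩ := hσ u huv l
    rw [hgK _ hx, hgK _ hu, ← sub_smul] at hc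
    have hlσ : l - σ l ≠ 0 := sub_ne_zero.2 (Ne.symm hl)
    have hu' : u = ((l - σ l)⁻¹ * c) • v := by rw [mul_smul, ← hc, inv_smul_smul₀ hlσ]
    set d := (l - σ l)⁻¹ * c
    have h1 : A d = d := smul_left_injective L hv (by
      show A d • v = d • v
      rw [← hA, ← hu', hgK _ hu])
    have h2 : A (l * d) = l * d := smul_left_injective L hv (by
      show A (l * d) • v = (l * d) • v
      rw [← hA, mul_smul, ← hu', hgK _ hx])
    rw [hσA, h1] at h2
    have : d = 0 := (mul_eq_zero.1 (show (σ l - l) * d = 0 by rw [sub_mul, h2, sub_self])).resolve_left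
      (sub_ne_zero.2 hl)
    rw [hu', this, zero_smul, smul_zero]
  have hl0 : l ≠ 0 := by
    rintro rfl
    have h1 := hσA 0 1
    have hA0 : A 0 = 0 := smul_left_injective L hv (by simp [← hA])
    have hA1 : A 1 ≠ 0 := fun h0 => by
      have h2 := hA 1
      rw [h0, zero_smul, one_smul] at h2
      exact hv (g.injective (by rw [h2, map_zero]))
    rw [zero_mul, hA0, zero_eq_mul] at h1
    exact hl (h1.resolve_right hA1)
  have hlK : finrank F lK = finrank F K := (Submodule.equivMapOfInjective _
    (fun a b hab => smul_right_injective V hl0 hab) K).finrank_eq.symm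
  have hle : K ⊔ lK ≤ P := sup_le inf_le_left (by
    rintro _ ⟨u, hu, rfl⟩
    have huv : h u v = 0 := hu.1
    change h (l • u) v = 0
    simp [huv])
  have h5 := Submodule.finrank_sup_add_finrank_inf_eq K lK
  rw [hdis, finrank_bot] at h5
  have h6 := Submodule.finrank_mono hle
  have h7 := Module.finrank_mul_finrank F L V
  have hpos : 0 < finrank F L := Module.finrank_pos
  nlinarith [hn, hpos]

/-- The image of a line that meets a line is a line. -/
lemma map_lineF_eq (H : Hyp h lam M) (hlin : OnlyLinear h M) (hn : 4 ≤ finrank L V) (k : ℕ) :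
    ∀ g ∈ M, ∀ v w : V, v ≠ 0 → w ≠ 0 →
      finrank F L ≤ finrank F ↥((lineF L v).map (g : V →ₗ[F] V) ⊓ lineF L w) + k →
      (lineF L v).map (g : V →ₗ[F] V) ⊓ lineF L w ≠ ⊥ →
      (lineF L v).map (g : V →ₗ[F] V) = lineF L w := by
  haveI : FiniteDimensional L V := Module.finite_of_finrank_pos (by omega)
  haveI : FiniteDimensional F V := FiniteDimensional.trans F L V
  have hdim : ∀ (g : V ≃ₗ[F] V) (v : V), v ≠ 0 →
      finrank F ((lineF L v).map (g : V →ₗ[F] V)) = finrank F L := fun g v hv => by
    rw [LinearEquiv.finrank_map_eq, finrank_lineF hv]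
  induction k with
  | zero =>
    intro g _ v w hv hw hle _
    have h1 := Submodule.eq_of_le_of_finrank_le
      (inf_le_left (a := (lineF L v).map (g : V →ₗ[F] V)) (b := lineF L w))
      (by rw [hdim g v hv]; omega)
    exact Submodule.eq_of_le_of_finrank_le (inf_eq_left.1 h1)
      (by rw [hdim g v hv, finrank_lineF hw])
  | succ k ih =>
    intro g hg v w hv hw hle hne
    set S' := (lineF L v).map (g : V →ₗ[F] V) with hS'
    by_contra hneq
    obtain ⟨d, hd, hd0⟩ := Submodule.exists_mem_ne_zero_of_ne_bot hne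
    obtain ⟨cd, rfl⟩ := mem_lineF.1 hd.2
    have hcd : cd ≠ 0 := fun h0 => hd0 (by simp [h0])
    by_cases hperp : ∀ u ∈ S', h u w = 0
    · -- perpendicular lines
      set D : Submodule F L := (lineF L w).comap ((g : V →ₗ[F] V) ∘ₗ
        ((LinearMap.toSpanSingleton L V v).restrictScalars F))
      have hD : D ≠ ⊤ := fun hD => hneq (Submodule.eq_of_le_of_finrank_le (by
        rintro _ ⟨x, hx, rfl⟩
        obtain ⟨s, rfl⟩ := mem_lineF.1 hx
        exact (hD ▸ Submodule.mem_top : s ∈ D)) (by rw [hdim g v hv, finrank_lineF hw]))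
      obtain ⟨q, hq0, hq⟩ : ∃ q : L, q ≠ 0 ∧ ∀ s ∈ D, lam (s * q) = 0 := by
        obtain ⟨θ, hθ, hθD⟩ := Submodule.exists_dual_map_eq_bot_of_lt_top (lt_top_iff_ne_top.2 hD)
          inferInstance
        obtain ⟨q, hq⟩ := H.lam_repr θ
        refine ⟨q, fun h0 => hθ (LinearMap.ext fun x => by simp [hq, h0]), fun s hs => ?_⟩
        rw [mul_comm, ← hq]
        exact (Submodule.mem_bot F).1 (hθD ▸ Submodule.mem_map_of_mem hs)
      set Ψ : V →ₗ[F] L × L := LinearMap.prod
        (((h.flip w).restrictScalars F : V →ₗ[F] L))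
        (((h.flip v).restrictScalars F : V →ₗ[F] L) ∘ₗ (g.symm : V →ₗ[F] V))
      obtain ⟨y, hy⟩ : ((0 : L), q) ∈ LinearMap.range Ψ := by
        by_contra hnot
        obtain ⟨θ, hθ, hθR⟩ := Submodule.exists_dual_map_eq_bot_of_notMem hnot inferInstance
        obtain ⟨s, hs⟩ := H.lam_repr (θ ∘ₗ LinearMap.inl F L L)
        obtain ⟨t, ht⟩ := H.lam_repr (θ ∘ₗ LinearMap.inr F L L)
        have hθ' : ∀ a b, θ (a, b) = lam (s * a) + lam (t * b) := fun a b => by
          rw [← hs, ← ht]
          simp only [LinearMap.comp_apply, LinearMap.inl_apply, LinearMap.inr_apply]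
          rw [← map_add, Prod.mk_add_mk, add_zero, zero_add]
        have hkey : s • w + g (t • v) = 0 := H.nondeg _ fun y => H.symm_zero (by
          refine H.eq_zero_of_lam fun u => ?_
          have h1 : θ (Ψ (u • y)) = 0 := (Submodule.mem_bot F).1
            (hθR ▸ Submodule.mem_map_of_mem (LinearMap.mem_range_self Ψ (u • y)))
          change θ (h (u • y) w, h (g.symm (u • y)) v) = 0 at h1
          rw [hθ'] at h1
          have h2 := H.iso g hg (g.symm (u • y)) (t • v)
          rw [g.apply_symm_apply] at h2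
          simp only [map_smul, LinearMap.smul_apply, smul_eq_mul] at h1 h2
          simp only [map_add, map_smul, smul_eq_mul, mul_add]
          rw [← mul_assoc u s, mul_comm u s, mul_assoc]
          linear_combination h1 + h2)
        have htD : t ∈ D := by
          change g (t • v) ∈ lineF L w (F := F)
          rw [eq_neg_of_add_eq_zero_right hkey, ← neg_smul]
          exact mem_lineF.2 ⟨_, rfl⟩
        refine hθ ?_
        rw [hθ', mul_zero, map_zero, zero_add, hq t htD]
      change (h y w, h (g.symm y) v) = ((0 : L), q) at hy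
      obtain ⟨hyw, hyv⟩ := Prod.mk.inj hy
      obtain ⟨s₁, -, hs₁⟩ := SetLike.exists_of_lt (lt_top_iff_ne_top.2 hD)
      obtain ⟨x, hx, hxy⟩ := H.inM_root_mul (s₁ / q) v
      set N : V →ₗ[F] V := (g : V →ₗ[F] V) ∘ₗ root h (mulL F (s₁ / q)) v ∘ₗ
        (g⁻¹ : V ≃ₗ[F] V).toLinearMap
      have hNM : InM M N := InM.conj ⟨x, hx, hxy⟩ hg
      obtain ⟨e, he, hey⟩ := hNM
      have hNS : ∀ z, N z ∈ S' := fun z => ⟨_, mem_lineF.2 ⟨_, rfl⟩, rfl⟩
      have hNy : N y ∉ lineF L w (F := F) := by
        change g (((s₁ / q) * h (g.symm y) v) • v) ∉ _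
        rw [hyv, div_mul_cancel₀ _ hq0]
        exact hs₁
      have hNw : ∀ l : L, N (l • w) = 0 := by
        intro l
        have h0 : h (g.symm (l • w)) v = 0 := H.eq_zero_of_lam fun s => by
          have h1 := H.iso g hg (g.symm (l • w)) (s • v)
          rw [g.apply_symm_apply] at h1
          have h2 := H.symm_zero (hperp (g (s • v)) ⟨_, mem_lineF.2 ⟨s, rfl⟩, rfl⟩)
          simp only [map_smul, LinearMap.smul_apply, smul_eq_mul, h2, mul_zero, map_zero] at h1
          exact h1.symm
        change g (((s₁ / q) * h (g.symm (l • w)) v) • v) = 0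
        rw [h0, mul_zero, zero_smul, map_zero]
      have hew : ∀ l : L, e (l • w) = l • w := fun l => by rw [hey, hNw, add_zero]
      have hes : ∀ z, e.symm z = z - N z := fun z => by
        rw [e.symm_apply_eq, hey, map_sub]
        have : N (N z) = 0 := by
          change g (root h _ v (g.symm (g (root h _ v (g.symm z))))) = 0
          simp [H.alt]
        rw [this, sub_zero, sub_add_cancel]
      obtain ⟨c, hc⟩ := H.eq_smul_of_orth hw (y := N y) fun z hz => by
        refine H.symm_zero ?_
        have hwz := H.symm_zero hz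
        set N1 := (e : V →ₗ[F] V) ∘ₗ mixed h (mulL F 1) (mulL F 1) w z ∘ₗ
          (e⁻¹ : V ≃ₗ[F] V).toLinearMap
        have hN1 : ∀ u, h u w = 0 → N1 u = (h u z - h (N u) z) • w := fun u hu => by
          change e (mixed h (mulL F 1) (mulL F 1) w z (e.symm u)) = _
          simp [hes, hu, hperp _ (hNS u), hew, map_sub, sub_smul]
        have hlinN : ∀ l : L, h (N (l • y)) z = l * h (N y) z := by
          intro l
          have h1 := H.linear_on_perp hlin hw ((H.inM_mixed_mul hwz 1).conj he)
            (fun s => by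
              change N1 (s • w) = 0
              rw [hN1 _ (by simp [H.alt]), hNw]
              simp [hwz])
            (fun u hu => ⟨_, hN1 u hu⟩) hyw l
          change N1 (l • y) = l • N1 y at h1
          rw [hN1 _ (by simp [hyw]), hN1 _ hyw, smul_smul] at h1
          have h2 := smul_left_injective L hw h1
          simp only [map_smul, LinearMap.smul_apply, smul_eq_mul] at h2
          linear_combination -h2
        by_contra h0
        set ψ : S' →ₗ[F] L := ((h.flip z).restrictScalars F) ∘ₗ S'.subtype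
        have hsurj : Function.Surjective ψ := fun t =>
          ⟨⟨_, hNS ((t / h (N y) z) • y)⟩, by
            change h (N _) z = t
            rw [hlinN, div_mul_cancel₀ _ h0]⟩
        have h1 := LinearMap.finrank_range_add_finrank_ker ψ
        rw [LinearMap.range_eq_top.2 hsurj, finrank_top, hdim g v hv] at h1
        have h2 : (⟨cd • w, hd.1⟩ : S') ∈ LinearMap.ker ψ := by
          change h (cd • w) z = 0
          simp [hwz]
        rw [Submodule.finrank_eq_zero.1 (show finrank F (LinearMap.ker ψ) = 0 by omega),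
          Submodule.mem_bot] at h2
        exact hd0 (congrArg Subtype.val h2)
      exact hNy (mem_lineF.2 ⟨c, hc.symm⟩)
    · -- a line that is not perpendicular: enlarge the intersection
      push Not at hperp
      obtain ⟨u, hu, huw⟩ := hperp
      obtain ⟨x, hx, hxy⟩ := H.inM_root_mul (cd / h u w) w
      have hxu : x u = u + cd • w := by
        rw [hxy, root_apply, mulL_apply, div_mul_cancel₀ _ huw]
      have hxS : x u ∈ S' := hxu ▸ S'.add_mem hu hd.1
      have hxw : ∀ l : L, x (l • w) = l • w := fun l => by simp [hxy, H.alt]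
      have hbig : S' ⊓ lineF L w < S'.map (x : V →ₗ[F] V) ⊓ S' := by
        refine SetLike.lt_iff_le_and_exists.2 ⟨fun s hs => ⟨?_, hs.1⟩, x u,
          ⟨⟨u, hu, rfl⟩, hxS⟩, fun hm => ?_⟩
        · obtain ⟨l, rfl⟩ := mem_lineF.1 hs.2
          exact ⟨l • w, hs.1, hxw l⟩
        · obtain ⟨l, hl⟩ := mem_lineF.1 hm.2
          refine huw ?_
          have : u = (l - cd) • w := by rw [sub_smul, hl, hxu, add_sub_cancel_right]
          simp [this, H.alt]
      set g' := g⁻¹ * x * g
      have hg' : g' ∈ M := M.mul_mem (M.mul_mem (M.inv_mem hg) hx) hg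
      have hmap : ∀ S : Submodule F V,
          (S.map (g' : V →ₗ[F] V)).map (g : V →ₗ[F] V) =
            (S.map (g : V →ₗ[F] V)).map (x : V →ₗ[F] V) := by
        intro S
        rw [← Submodule.map_comp, ← Submodule.map_comp]
        congr 1
        refine LinearMap.ext fun X => ?_
        change g (g.symm (x (g X))) = x (g X)
        rw [g.apply_symm_apply]
      have hfin := LinearEquiv.finrank_map_eq g
        ((lineF L v).map (g' : V →ₗ[F] V) ⊓ lineF L v)
      rw [Submodule.map_inf _ g.injective, hmap] at hfin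
      change finrank F ↥(S'.map (x : V →ₗ[F] V) ⊓ S') = _ at hfin
      have hlt := Submodule.finrank_lt_finrank_of_lt hbig
      have heq := ih g' hg' v v hv hv (by omega) fun h0 => by
        rw [h0, finrank_bot] at hfin
        omega
      have hA : ∀ s : L, ∃ t : L, g' (s • v) = t • v := fun s => by
        have hm : g' (s • v) ∈ (lineF L v).map (g' : V →ₗ[F] V) :=
          ⟨s • v, mem_lineF.2 ⟨s, rfl⟩, rfl⟩
        rw [heq] at hm
        obtain ⟨t, ht⟩ := mem_lineF.1 hm
        exact ⟨t, ht.symm⟩
      choose A hA using hA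
      obtain ⟨z, hz, hzd⟩ := hd.1
      obtain ⟨s₀, rfl⟩ := mem_lineF.1 hz
      have hs₀ : s₀ ≠ 0 := fun h0 => hd0 (by rw [← hzd, h0, zero_smul, map_zero])
      have hfix : A s₀ = s₀ := smul_left_injective L hv (by
        change A s₀ • v = s₀ • v
        rw [← hA]
        change g.symm (x (g (s₀ • v))) = _
        rw [show g (s₀ • v) = cd • w from hzd, hxw, ← hzd]
        exact g.symm_apply_apply _)
      have hrk : finrank F (LinearMap.range ((g' : V →ₗ[F] V) - LinearMap.id)) ≤ finrank F L := by
        refine le_trans (Submodule.finrank_mono (t := (lineF L w).map (g.symm : V →ₗ[F] V)) ?_) ?_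
        · rintro _ ⟨y, rfl⟩
          refine ⟨((cd / h u w) * h (g y) w) • w, mem_lineF.2 ⟨_, rfl⟩, ?_⟩
          change g.symm _ = g.symm (x (g y)) - y
          rw [hxy, map_add, g.symm_apply_apply, add_sub_cancel_left, root_apply, mulL_apply]
        · rw [LinearEquiv.finrank_map_eq, finrank_lineF hw]
      have hid := H.eq_id_of_small hlin hn hg' hv hA hs₀ hfix hrk
      obtain ⟨z', hz', hzu⟩ := hu
      obtain ⟨s, rfl⟩ := mem_lineF.1 hz'
      have h1 := hA s
      rw [hid] at h1
      change g.symm (x (g (s • v))) = s • v at h1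
      rw [show g (s • v) = u from hzu, g.symm_apply_eq, show g (s • v) = u from hzu, hxu,
        add_eq_left] at h1
      exact hd0 h1

/-- Every element maps lines into lines. -/
theorem smul_mem_lineF (H : Hyp h lam M) (hlin : OnlyLinear h M) (hn : 4 ≤ finrank L V)
    {g : V ≃ₗ[F] V} (hg : g ∈ M) (x : V) (l : L) : g (l • x) ∈ lineF L (g x) (F := F) := by
  haveI : FiniteDimensional L V := Module.finite_of_finrank_pos (by omega)
  rcases eq_or_ne x 0 with rfl | hx
  · simp
  have hgx : g x ≠ 0 := by simpa using hx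
  have := H.map_lineF_eq hlin hn (finrank F L) g hg x (g x) hx hgx (Nat.le_add_left _ _)
    ((Submodule.ne_bot_iff _).2 ⟨g x, ⟨⟨x, self_mem_lineF x, rfl⟩, self_mem_lineF _⟩, hgx⟩)
  exact this ▸ ⟨l • x, mem_lineF.2 ⟨l, rfl⟩, rfl⟩

end Hyp

end CfsgLib.FormExt91
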