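import Cfsg.Agent.FieldExtMax.CoeffSpace
import Cfsg.Agent.FormExt91.Basic

/-!
A root coefficient which is not `L`-linear yields every transvection over `F`.
-/

set_option autoImplicit false

namespace CfsgLib.FormExt91

open Module CfsgLib.FieldExtMax

variable {F L V : Type*} [Field F] [Field L] [Algebra F L] [AddCommGroup V] [Module F V]
  [Module L V] [IsScalarTower F L V]

/-- A coefficient valid at every vector. -/
def IsU (h : LinearMap.BilinForm L V) (M : Subgroup (V ≃ₗ[F] V)) (τ : L →ₗ[F] L) : Prop :=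
  ∀ a, InM M (root h τ a)

/-- A coefficient pair valid at every orthogonal independent pair. -/
def Wp (h : LinearMap.BilinForm L V) (M : Subgroup (V ≃ₗ[F] V)) (σ σ' : L →ₗ[F] L) : Prop :=
  ∀ a b, a ≠ 0 → (∀ c : L, b ≠ c • a) → h a b = 0 → InM M (mixed h σ σ' a b)

/-- The transvection part `x ↦ c λ(h x z) • z`. -/
def transF (h : LinearMap.BilinForm L V) (lam : L →ₗ[F] F) (c : F) (z : V) : V →ₗ[F] V :=
  c • LinearMap.smulRight (lam ∘ₗ ((h.flip z).restrictScalars F)) z

@[simp] lemma transF_apply (h : LinearMap.BilinForm L V) (lam : L →ₗ[F] F) (c : F) (z x : V) :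
    transF h lam c z x = (c * lam (h x z)) • z := by
  simp [transF, smul_smul]

variable {h : LinearMap.BilinForm L V} {lam : L →ₗ[F] F} {M : Subgroup (V ≃ₗ[F] V)}

lemma IsU.zero : IsU h M (0 : L →ₗ[F] L) := fun _ => InM.zero.congr fun y => by simp

lemma Wp.zero : Wp h M (0 : L →ₗ[F] L) 0 := fun _ _ _ _ _ => InM.zero.congr fun y => by simp

lemma Hyp.isU_mulL (H : Hyp h lam M) (l : L) : IsU h M (mulL F l) := fun a => H.inM_root_mul l a

lemma Hyp.wp_of_isU (H : Hyp h lam M) {τ : L →ₗ[F] L} (hτ : IsU h M τ) : Wp h M τ τ :=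
  fun _ _ _ _ hab => H.inM_mixed_of_root hab hτ

lemma Hyp.wp_add (H : Hyp h lam M) {σ σ' ρ ρ' : L →ₗ[F] L} (h1 : Wp h M σ σ')
    (h2 : Wp h M ρ ρ') : Wp h M (σ + ρ) (σ' + ρ') := fun a b ha hb hab =>
  ((h1 a b ha hb hab).add (h2 a b ha hb hab) fun y => by
      simp [H.alt, hab, H.symm_zero hab]).congr fun y => by
    simp [add_smul]; abel

lemma Hyp.wp_scale (H : Hyp h lam M) {σ σ' : L →ₗ[F] L} (h1 : Wp h M σ σ') (l : L) :
    Wp h M (σ ∘ₗ mulL F l) (mulL F l ∘ₗ σ') := fun a b ha hb hab => by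
  rcases eq_or_ne l 0 with rfl | hl
  · exact InM.zero.congr fun y => by simp
  refine (h1 a (l • b) ha (fun c hc => hb (l⁻¹ * c) ?_) (by simp [hab])).congr fun y => ?_
  · rw [mul_smul, ← hc, inv_smul_smul₀ hl]
  · simp [smul_smul, mul_comm]

/-- The commutator of a mixed element with a root element. -/
lemma Hyp.inM_product (H : Hyp h lam M) {σ σ' τ : L →ₗ[F] L} (h1 : Wp h M σ σ') (h2 : IsU h M τ)
    {a b : V} (ha : a ≠ 0) (hb : ∀ c : L, b ≠ c • a) (hab : h a b = 0) :
    InM M (mixed h (σ ∘ₗ τ) (τ ∘ₗ σ') a b + root h (σ ∘ₗ τ ∘ₗ σ') a) := by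
  obtain ⟨z, hza, hbz⟩ := H.exists_pair ha hb
  have hz : ∀ c : L, z ≠ c • a := fun c hc => by
    rw [hc, map_smul, H.symm_zero hab, smul_zero] at hbz
    exact zero_ne_one hbz
  have hzb : h z b = -1 := by rw [H.skew b z, hbz]
  have hba := H.symm_zero hab
  have haz := H.symm_zero hza
  obtain ⟨e, he, hey⟩ := h1 a z ha hz haz
  obtain ⟨e', he', hey'⟩ := h2 b
  have hA : ∀ y, mixed h σ σ' a z (mixed h σ σ' a z y) = 0 := fun y => by
    simp [H.alt, hza, haz]
  have hB : ∀ y, root h τ b (root h τ b y) = 0 := fun y => by simp [H.alt]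
  obtain ⟨f, hf, hfy⟩ := InM.neg ⟨e, he, hey⟩ hA
  obtain ⟨f', hf', hfy'⟩ := InM.neg ⟨e', he', hey'⟩ hB
  refine ⟨e * e' * f * f', M.mul_mem (M.mul_mem (M.mul_mem he he') hf) hf', fun y => ?_⟩
  simp only [LinearEquiv.mul_apply, hey, hey', hfy, hfy', LinearMap.neg_apply, LinearMap.add_apply,
    root_apply, mixed_apply, map_add, map_neg, map_smul, LinearMap.smul_apply, smul_eq_mul, H.alt,
    hab, hba, hza, haz, hbz, hzb, LinearMap.comp_apply, mul_zero, mul_one, mul_neg, map_zero,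
    add_zero, zero_add, neg_zero, zero_smul, neg_neg]
  module

/-- A second field element. -/
lemma exists_ne_zero_one [FiniteDimensional F L] (hr : 2 ≤ finrank F L) :
    ∃ l : L, l ≠ 0 ∧ l ≠ 1 := by
  by_contra! h0
  have h1 : (⊤ : Submodule F L) ≤ Submodule.span F {(1 : L)} := fun x _ => by
    rcases eq_or_ne x 0 with rfl | hx
    · exact zero_mem _
    · rw [h0 x hx]; exact Submodule.mem_span_singleton_self 1
  have h2 := Submodule.finrank_mono h1
  rw [finrank_top, finrank_span_singleton one_ne_zero] at h2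
  omega

lemma Hyp.wp_product [FiniteDimensional F L] (H : Hyp h lam M) (hr : 2 ≤ finrank F L)
    {σ σ' τ : L →ₗ[F] L} (h1 : Wp h M σ σ') (h2 : IsU h M τ) :
    Wp h M (σ ∘ₗ τ) (τ ∘ₗ σ') := by
  obtain ⟨l, hl0, hl1⟩ := exists_ne_zero_one (F := F) hr
  have h3 : Wp h M ((σ ∘ₗ τ) ∘ₗ mulL F (l - 1)) (mulL F (l - 1) ∘ₗ (τ ∘ₗ σ')) := by
    intro a b ha hb hab
    have hba := H.symm_zero hab
    have hP := H.inM_product h1 h2 ha (b := l • b)
      (fun c hc => hb (l⁻¹ * c) (by rw [mul_smul, ← hc, inv_smul_smul₀ hl0])) (by simp [hab])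
    have hQ := (H.inM_product h1 h2 ha hb hab).neg fun y => by simp [H.alt, hab, hba]
    refine (hP.add hQ fun y => by simp [H.alt, hab, hba]).congr fun y => ?_
    simp only [mixed_apply, LinearMap.comp_apply, mulL_apply, LinearMap.add_apply,
      LinearMap.neg_apply, root_apply, map_smul, smul_eq_mul, sub_mul, one_mul, map_sub, smul_smul]
    module
  have h4 := H.wp_scale h3 (l - 1)⁻¹
  have e1 : ((σ ∘ₗ τ) ∘ₗ mulL F (l - 1)) ∘ₗ mulL F (l - 1)⁻¹ = σ ∘ₗ τ := LinearMap.ext fun x => by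
    simp [← mul_assoc, mul_inv_cancel₀ (sub_ne_zero.2 hl1)]
  have e2 : mulL F (l - 1)⁻¹ ∘ₗ (mulL F (l - 1) ∘ₗ (τ ∘ₗ σ')) = τ ∘ₗ σ' := LinearMap.ext fun x => by
    simp [← mul_assoc, inv_mul_cancel₀ (sub_ne_zero.2 hl1)]
  rwa [e1, e2] at h4

lemma Hyp.exists_orth_indep (H : Hyp h lam M) (hn : 4 ≤ finrank L V) {a : V} (ha : a ≠ 0) :
    ∃ b, (∀ c : L, b ≠ c • a) ∧ h a b = 0 := by
  classical
  by_contra! h0
  obtain ⟨a', ha'⟩ := H.exists_one ha
  have h1 : (⊤ : Submodule L V) ≤ Submodule.span L {a, a'} := fun x _ => by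
    have hx : h (x - h x a • a') a = 0 := by simp [ha']
    by_cases hd : ∃ c : L, x - h x a • a' = c • a
    · obtain ⟨c, hc⟩ := hd
      exact Submodule.mem_span_pair.2 ⟨c, h x a, (sub_eq_iff_eq_add.1 hc).symm⟩
    · push Not at hd
      exact absurd (H.symm_zero hx) (h0 _ hd)
  haveI : FiniteDimensional L V := Module.finite_of_finrank_pos (by omega)
  have h2 := Submodule.finrank_mono h1
  have h3 := finrank_span_finset_le_card (R := L) (M := V) {a, a'}
  rw [Finset.coe_pair, Set.finrank] at h3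
  have h4 := Finset.card_le_two (a := a) (b := a')
  rw [finrank_top] at h2
  omega

lemma Hyp.isU_product [FiniteDimensional F L] (H : Hyp h lam M) (hr : 2 ≤ finrank F L)
    (hn : 4 ≤ finrank L V) {σ σ' τ : L →ₗ[F] L} (h1 : Wp h M σ σ') (h2 : IsU h M τ) :
    IsU h M (σ ∘ₗ τ ∘ₗ σ') := by
  obtain ⟨a, ha⟩ : ∃ a : V, a ≠ 0 := by
    have : Nontrivial V := Module.nontrivial_of_finrank_pos (R := L) (by omega)
    exact exists_ne 0
  obtain ⟨b, hb, hab⟩ := H.exists_orth_indep hn ha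
  have hba := H.symm_zero hab
  refine fun a' => H.inM_root_all ha ?_ a'
  refine (((H.wp_product hr h1 h2) a b ha hb hab).neg fun y => by simp [H.alt, hab, hba]).add
    (H.inM_product h1 h2 ha hb hab) (fun y => by simp [H.alt, hab, hba]) |>.congr fun y => ?_
  simp

/-- A set of endomorphisms closed under sums and products with `L` on both sides contains the
field automorphisms involved in its members. -/
lemma aut_mem_of_mem [Finite L] [FiniteDimensional F L] [IsGalois F L] {P : (L →ₗ[F] L) → Prop}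
    (hadd : ∀ τ τ', P τ → P τ' → P (τ + τ')) (hsmul : ∀ τ (l : L), P τ → P (l • τ))
    (hcomp : ∀ τ (l : L), P τ → P (τ ∘ₗ mulL F l)) {τ : L →ₗ[F] L} (hτ : P τ) {g : L ≃ₐ[F] L}
    (hg : autBasis.repr τ g ≠ 0) : P (autBasis g) := by
  classical
  induction hn : (Finset.univ.filter fun k => autBasis.repr τ k ≠ 0).card using Nat.strong_induction_on
    generalizing τ with
  | _ n ih =>
    by_cases hone : ∃ k, k ≠ g ∧ autBasis.repr τ k ≠ 0
    · obtain ⟨k, hkg, hk⟩ := hone
      obtain ⟨l, hl⟩ : ∃ l, g l ≠ k l := by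
        by_contra! h'
        exact hkg (AlgEquiv.ext fun l => (h' l).symm)
      set τ' := τ ∘ₗ mulL F l + (-(k l)) • τ
      have hτ' : P τ' := hadd _ _ (hcomp τ l hτ) (hsmul τ _ hτ)
      have hrepr : ∀ j, autBasis.repr τ' j = autBasis.repr τ j * (j l - k l) := by
        have he : τ' = ∑ j, (autBasis.repr τ j * (j l - k l)) • autBasis j := by
          ext x
          simp only [τ', LinearMap.add_apply, LinearMap.smul_apply, LinearMap.comp_apply,
            mulL_apply, smul_eq_mul, LinearMap.sum_apply,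
            autBasis_apply, ← sum_repr_apply τ (l * x), ← sum_repr_apply τ x, map_mul,
            Finset.mul_sum, ← Finset.sum_add_distrib]
          exact Finset.sum_congr rfl fun j _ => by ring
        intro j
        rw [he, Basis.repr_sum_self]
      refine ih _ ?_ hτ' ?_ rfl
      · rw [← hn]
        refine Finset.card_lt_card ⟨fun j hj => ?_, fun hsub => ?_⟩
        · simp only [Finset.mem_filter, Finset.mem_univ, true_and, hrepr] at hj ⊢
          exact left_ne_zero_of_mul hj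
        · have := hsub (show k ∈ Finset.univ.filter fun j => autBasis.repr τ j ≠ 0 by simp [hk])
          simp [hrepr] at this
      · rw [hrepr]
        exact mul_ne_zero hg (sub_ne_zero.2 hl)
    · push Not at hone
      have : τ = autBasis.repr τ g • autBasis g := by
        conv_lhs => rw [← autBasis.sum_repr τ]
        exact Finset.sum_eq_single g (fun k _ hk => by simp [hone k hk])
          (fun h' => absurd (Finset.mem_univ g) h')
      have h2 := hsmul τ (autBasis.repr τ g)⁻¹ hτ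
      rwa [this, map_smul, Basis.repr_self, Finsupp.smul_single, Finsupp.single_eq_same,
        smul_eq_mul, mul_one, smul_smul, inv_mul_cancel₀ hg, one_smul] at h2

/-- Every endomorphism occurs in a mixed root element. -/
lemma Hyp.exists_wp [Finite L] [FiniteDimensional F L] [IsGalois F L] (H : Hyp h lam M)
    (hr : (finrank F L).Prime) {τ : L →ₗ[F] L} (hτ : IsU h M τ)
    (hne : ∀ l : L, τ ≠ mulL F l) (σ : L →ₗ[F] L) : ∃ σ', Wp h M σ σ' := by
  classical
  set P : (L →ₗ[F] L) → Prop := fun β => ∀ σ σ', Wp h M σ σ' → ∃ ρ, Wp h M (σ ∘ₗ β) ρ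
  have hadd : ∀ β β', P β → P β' → P (β + β') := fun β β' h1 h2 σ σ' hσ => by
    obtain ⟨ρ, hρ⟩ := h1 σ σ' hσ
    obtain ⟨ρ', hρ'⟩ := h2 σ σ' hσ
    refine ⟨ρ + ρ', ?_⟩
    have he : σ ∘ₗ (β + β') = σ ∘ₗ β + σ ∘ₗ β' := LinearMap.ext fun x => map_add σ _ _
    rw [he]
    exact H.wp_add hρ hρ'
  have hmul : ∀ β β', P β → P β' → P (β ∘ₗ β') := fun β β' h1 h2 σ σ' hσ => by
    obtain ⟨ρ, hρ⟩ := h1 σ σ' hσ
    obtain ⟨ρ', hρ'⟩ := h2 _ ρ hρ
    refine ⟨ρ', ?_⟩
    rw [← LinearMap.comp_assoc]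
    exact hρ'
  have hU : ∀ {β}, IsU h M β → P β := fun hβ σ σ' hσ => ⟨_, H.wp_product hr.two_le hσ hβ⟩
  have hsmul : ∀ β (l : L), P β → P (l • β) := fun β l hβ => by
    have := hmul _ _ (hU (H.isU_mulL l)) hβ
    convert this using 1
    exact LinearMap.ext fun x => by simp
  have hcomp : ∀ β (l : L), P β → P (β ∘ₗ mulL F l) := fun β l hβ =>
    hmul _ _ hβ (hU (H.isU_mulL l))
  obtain ⟨g, hg1, hg⟩ : ∃ g : L ≃ₐ[F] L, g ≠ 1 ∧ autBasis.repr τ g ≠ 0 := by
    by_contra! h0
    refine hne (autBasis.repr τ 1) (LinearMap.ext fun x => ?_)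
    rw [← sum_repr_apply τ x, Finset.sum_eq_single (1 : L ≃ₐ[F] L)
      (fun k _ hk => by simp [h0 k hk]) (by simp)]
    simp
  have hgP := aut_mem_of_mem hadd hsmul hcomp (hU hτ) hg
  have hone : P (autBasis (1 : L ≃ₐ[F] L)) := by
    have : autBasis (1 : L ≃ₐ[F] L) = mulL F (1 : L) := LinearMap.ext fun x => by
      simp [autBasis_apply]
    rw [this]; exact hU (H.isU_mulL 1)
  have hpow : ∀ k : ℕ, P (autBasis (g ^ k)) := by
    intro k
    induction k with
    | zero => simpa using hone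
    | succ k ih =>
      have : autBasis (g ^ (k + 1)) = autBasis (g ^ k) ∘ₗ autBasis g := LinearMap.ext fun x => by
        simp [autBasis_apply, pow_succ, AlgEquiv.mul_apply]
      rw [this]; exact hmul _ _ ih hgP
  have hall : ∀ k : L ≃ₐ[F] L, P (autBasis k) := by
    intro k
    have : Fact (finrank F L).Prime := ⟨hr⟩
    have hcard : Nat.card (L ≃ₐ[F] L) = finrank F L := IsGalois.card_aut_eq_finrank F L
    have := mem_zpowers_of_prime_card hcard (g := g) (g' := k) hg1
    obtain ⟨j, rfl⟩ := mem_powers_iff_mem_zpowers.2 this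
    exact hpow j
  have htot : P σ := by
    rw [← autBasis.sum_repr σ]
    refine Finset.sum_induction _ P hadd (fun σ σ' hσ => ⟨0, by rw [LinearMap.comp_zero]; exact Wp.zero⟩)
      fun k _ => hsmul _ _ (hall k)
  obtain ⟨ρ, hρ⟩ := htot (mulL F 1) (mulL F 1) (H.wp_of_isU (H.isU_mulL 1))
  refine ⟨ρ, ?_⟩
  convert hρ using 2
  exact LinearMap.ext fun x => by simp

/-- The two coefficients of a mixed root element are adjoint. -/
lemma Hyp.wp_adjoint (H : Hyp h lam M) (hn : 4 ≤ finrank L V) {σ σ' : L →ₗ[F] L}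
    (h1 : Wp h M σ σ') (u v : L) : lam (σ u * v) = lam (σ' v * u) := by
  obtain ⟨a, ha⟩ : ∃ a : V, a ≠ 0 := by
    have : Nontrivial V := Module.nontrivial_of_finrank_pos (R := L) (by omega)
    exact exists_ne 0
  obtain ⟨b, hb, hab⟩ := H.exists_orth_indep hn ha
  have hb0 : b ≠ 0 := fun h0 => hb 0 (by simp [h0])
  have hba' : ∀ c : L, a ≠ c • b := fun c hc => by
    rcases eq_or_ne c 0 with rfl | hc0
    · exact ha (by simpa using hc)
    · exact hb c⁻¹ (by rw [hc, inv_smul_smul₀ hc0])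
  obtain ⟨x, hxa, hbx⟩ := H.exists_pair ha hb
  obtain ⟨y, hyb, hay⟩ := H.exists_pair hb0 hba'
  obtain ⟨e, he, hey⟩ := h1 a b ha hb hab
  have hxb : h x b = -1 := by rw [H.skew b x, hbx]
  have hya : h y a = -1 := by rw [H.skew a y, hay]
  have h2 := H.iso e he ((-u) • x) ((-v) • y)
  rw [hey, hey] at h2
  simp only [mixed_apply, map_add, map_smul, LinearMap.add_apply, LinearMap.smul_apply, smul_eq_mul,
    hxa, hxb, hya, hyb, hay, H.alt, hab, mul_zero, zero_smul, map_zero, add_zero, zero_add,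
    mul_neg, mul_one, neg_neg, neg_mul, map_neg] at h2
  simp only [mul_add, mul_neg, map_add, map_neg, ← mul_assoc] at h2
  rw [mul_comm (σ u) v]
  linear_combination -h2

lemma Hyp.exists_lam_sq_ne_zero [Finite L] (H : Hyp h lam M) : ∃ e : L, lam (e * e) ≠ 0 := by
  by_contra! h0
  refine H.lam_ne (LinearMap.ext fun t => ?_)
  rw [LinearMap.zero_apply]
  by_cases h2 : (2 : L) = 0
  · haveI : CharP L 2 := CharTwo.of_one_ne_zero_of_two_eq_zero one_ne_zero h2
    obtain ⟨s, rfl⟩ := FiniteField.isSquare_of_char_two (ringChar.eq L 2) t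
    exact h0 s
  · have h3 : (t / 2 + 1) * (t / 2 + 1) = t / 2 * (t / 2) + t + 1 * 1 := by
      field_simp; ring
    have h4 := h0 (t / 2 + 1)
    rw [h3, map_add, map_add, h0, h0, zero_add, add_zero] at h4
    exact h4

/-- A twisted coefficient gives all transvections over `F`. -/
theorem Hyp.inM_transF_of_twist [Finite L] [FiniteDimensional F L] [IsGalois F L]
    (H : Hyp h lam M) (hr : (finrank F L).Prime) (hn : 4 ≤ finrank L V) {τ : L →ₗ[F] L} {a : V}
    (ha : a ≠ 0) (hin : InM M (root h τ a)) (hne : ∀ l : L, τ ≠ mulL F l) (c : F) (z : V) :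
    InM M (transF h lam c z) := by
  obtain ⟨e, he⟩ := H.exists_lam_sq_ne_zero
  set σ : L →ₗ[F] L := LinearMap.smulRight (lam ∘ₗ mulL F e) (1 : L)
  obtain ⟨σ', hσ'⟩ := H.exists_wp hr (fun b => H.inM_root_all ha hin b) hne σ
  have hs : ∀ v, σ' v = lam v • e := fun v => H.lam_ext fun u => by
    rw [mul_comm u, ← H.wp_adjoint hn hσ']
    simp [σ, mul_comm u e, mul_comm (lam (e * u))]
  refine (H.isU_product hr.two_le hn hσ'
    (H.isU_mulL (algebraMap F L (c / lam (e * e)))) z).congr fun y => ?_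
  simp only [σ, hs, root_apply, LinearMap.comp_apply, LinearMap.smulRight_apply, mulL_apply,
    transF_apply, Algebra.algebraMap_eq_smul_one, smul_mul_assoc, one_mul, mul_smul_comm, map_smul,
    smul_smul, smul_eq_mul, smul_assoc, one_smul]
  congr 1
  rw [← sq] at he
  field_simp

end CfsgLib.FormExt91
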