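import Cfsg.Agent.FieldExtMax.MatrixForm
import Cfsg.Agent.Classical.SympFormStd
import Cfsg.Agent.FormExt91.Twist
import Cfsg.Agent.FormExt91.Lines

/-!
The normaliser in `Sp` of a self-adjoint extension field is maximal when the space has dimension at
least four over the field.
-/

set_option autoImplicit false

namespace CfsgLib.FormExt91

open Module Matrix CfsgLib.FieldExtMax CfsgLib.SympFormStd CfsgLib.AltFormTransv

variable {F : Type*} [Field F] [Fintype F]

/-- Maximality of the extension field normaliser in `Sp_{2m}`. -/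
theorem symp_fieldExt_isMaximal (m r : ℕ) (hr : r.Prime) (hm : 4 * r ≤ 2 * m)
    (K : Subalgebra F (Matrix (Fin m ⊕ Fin m) (Fin m ⊕ Fin m) F))
    (hK : Cfsg.Geo.IsFieldSubalgebra r K)
    (hsa : Cfsg.Geo.IsSelfAdjointFor (Cfsg.sympForm m F) K)
    (halt : ∀ k ∈ K, ∀ v : (Fin m ⊕ Fin m → F), Cfsg.sympForm m F (Matrix.mulVec k v) v = 0) :
    Cfsg.Geo.IsMaximalIn (Cfsg.spGL m F) (Cfsg.Geo.subalgebraNormalizer K ⊓ Cfsg.spGL m F) := by
  classical
  have hr2 := hr.two_le
  haveI : Nonempty (Fin m ⊕ Fin m) := ⟨Sum.inl ⟨0, by omega⟩⟩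
  letI : Field K := fieldOf hK
  letI : Module K (Fin m ⊕ Fin m → F) := moduleOf K
  haveI : IsScalarTower F K (Fin m ⊕ Fin m → F) :=
    ⟨fun c k y => smul_mulVec c (k : Matrix (Fin m ⊕ Fin m) (Fin m ⊕ Fin m) F) y⟩
  haveI : Finite K := inferInstance
  haveI : FiniteDimensional F K := Module.Finite.of_finite
  haveI : IsGalois F K := GaloisField.instIsGaloisOfFinite
  haveI : FiniteDimensional K (Fin m ⊕ Fin m → F) := Module.Finite.of_finite
  have hfr : finrank F K = r := hK.finrank_eq
  have hn : 4 ≤ finrank K (Fin m ⊕ Fin m → F) := by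
    have h := Module.finrank_mul_finrank F K (Fin m ⊕ Fin m → F)
    rw [hfr, Module.finrank_pi, Fintype.card_sum, Fintype.card_fin] at h
    by_contra! h2
    have h3 := Nat.mul_le_mul_left r (Nat.le_of_lt_succ h2)
    omega
  have hf := isSymplecticForm m F
  set f := Cfsg.sympForm m F
  -- a functional on the field and the form over the field
  set lam : K →ₗ[F] F := Algebra.trace F K
  have hlam : lam ≠ 0 := fun h0 => by
    obtain ⟨c, hc⟩ := Algebra.trace_surjective F K (1 : F)
    rw [show Algebra.trace F K c = 0 from LinearMap.congr_fun h0 c] at hc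
    exact zero_ne_one hc
  have hext : ∀ u v : K, (∀ s, lam (s * u) = lam (s * v)) → u = v := by
    intro u v huv
    by_contra hne
    refine hlam (LinearMap.ext fun t => ?_)
    have h1 := huv (t * (u - v)⁻¹)
    rw [← sub_eq_zero, ← map_sub, ← mul_sub, inv_mul_cancel_right₀ (sub_ne_zero.2 hne)] at h1
    simpa using h1
  have hrep : ∀ x y : Fin m ⊕ Fin m → F, ∃ h : K, ∀ k : K, lam (k * h) = f (k • x) y := by
    intro x y
    let Φ : K →ₗ[F] Dual F K :=
      { toFun := fun h => lam ∘ₗ mulL F h
        map_add' := fun a b => LinearMap.ext fun s => by simp [add_mul]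
        map_smul' := fun c a => LinearMap.ext fun s => by simp }
    have hinj : Function.Injective Φ := fun a b hab => hext a b fun s => by
      have := LinearMap.congr_fun hab s
      simpa [Φ, mul_comm] using this
    let θ : Dual F K :=
      { toFun := fun k => f (k • x) y
        map_add' := fun a b => by rw [add_smul, hf.bilinear.add_left]
        map_smul' := fun c a => by rw [smul_assoc, hf.bilinear.smul_left]; rfl }
    obtain ⟨h, hh⟩ := (LinearMap.injective_iff_surjective_of_finrank_eq_finrank
      Subspace.dual_finrank_eq.symm).1 hinj θ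
    exact ⟨h, fun k => by rw [mul_comm]; exact LinearMap.congr_fun hh k⟩
  choose hfun hhfun using hrep
  have hsmul : ∀ (k : K) (x y : Fin m ⊕ Fin m → F), f (k • x) y = f x (k • y) := fun k x y =>
    hsa k k.2 x y
  let h : LinearMap.BilinForm K (Fin m ⊕ Fin m → F) := LinearMap.mk₂ K hfun
    (fun x x' y => hext _ _ fun k => by
      rw [mul_add, map_add, hhfun, hhfun, hhfun, smul_add, hf.bilinear.add_left])
    (fun l x y => hext _ _ fun k => by
      rw [smul_eq_mul, ← mul_assoc, hhfun, hhfun, smul_smul])
    (fun x y y' => hext _ _ fun k => by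
      rw [mul_add, map_add, hhfun, hhfun, hhfun, hf.bilinear.add_right])
    (fun l x y => hext _ _ fun k => by
      rw [smul_eq_mul, ← mul_assoc, hhfun, hhfun, ← hsmul, smul_smul, mul_comm l k])
  have hh : ∀ (k : K) x y, lam (k * h x y) = f (k • x) y := fun k x y => hhfun x y k
  have hh1 : ∀ x y, lam (h x y) = f x y := fun x y => by
    have := hh 1 x y
    rwa [one_mul, one_smul] at this
  refine ⟨lt_of_le_not_ge inf_le_right fun hle => ?_, fun M hHM hMG => ?_⟩
  · -- properness
    obtain ⟨z, hz⟩ := exists_ne (0 : Fin m ⊕ Fin m → F)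
    obtain ⟨-, y, hy⟩ := hf.nondegenerate z hz
    have hyz : f y z ≠ 0 := fun h0 => hy (by rw [hf.skew, h0, neg_zero])
    have hg := (hle (sympT_mem_spGL z 1)).1
    replace hg := (mem_normalizer_iff hK _).1 hg
    have hlF : ∀ l : K, ∃ c : F, l = c • (1 : K) := by
      intro l
      obtain ⟨k', hk', he⟩ := hg l l.2
      set σ : K := ⟨k', hk'⟩
      have e := he y
      change _ *ᵥ (l • y) = σ • _ at e
      rw [sympT_mulVec, sympT_mulVec, one_mul, one_mul, smul_add, smul_comm σ (f y z) z] at e
      -- `y` is not on the line of `z`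
      have hy' : ∀ c : K, y ≠ c • z := fun c hc => hyz (by rw [hc]; exact halt c c.2 z)
      have hσ : σ = l := by
        by_contra hne
        have e' : (l - σ) • y = (f y z • σ - f (l • y) z • (1 : K)) • z := by
          rw [sub_smul, sub_smul, smul_assoc, smul_assoc, one_smul]
          linear_combination (norm := abel) e
        refine hy' ((l - σ)⁻¹ * (f y z • σ - f (l • y) z • (1 : K))) ?_
        rw [mul_smul, ← e', inv_smul_smul₀ (sub_ne_zero.2 (Ne.symm hne))]
      rw [hσ, add_right_inj] at e
      refine ⟨f (l • y) z / f y z, smul_left_injective K hz ?_⟩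
      change l • z = ((f (l • y) z / f y z) • (1 : K)) • z
      rw [smul_assoc, one_smul, div_eq_inv_mul, ← smul_smul, e, inv_smul_smul₀ hyz]
    have h1 : (⊤ : Submodule F K) ≤ Submodule.span F {(1 : K)} := fun l _ => by
      obtain ⟨c, rfl⟩ := hlF l
      exact Submodule.smul_mem _ _ (Submodule.mem_span_singleton_self 1)
    have h2 := Submodule.finrank_mono h1
    rw [finrank_top, finrank_span_singleton (one_ne_zero : (1 : K) ≠ 0), hfr] at h2
    omega
  · set M' := M.map (glEquiv : GL (Fin m ⊕ Fin m) F ≃* _).toMonoidHom with hM'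
    have hmem : ∀ g, glEquiv g ∈ M' ↔ g ∈ M :=
      fun g => Subgroup.mem_map_equiv.trans (by rw [MulEquiv.symm_apply_apply])
    have H : Hyp h lam M' :=
      { alt := fun x => hext _ _ fun k => by
          rw [mul_zero, map_zero, hh]
          exact halt k k.2 x
        nondeg := fun x hx => by
          by_contra h0
          obtain ⟨-, y, hy⟩ := hf.nondegenerate x h0
          exact hy (by rw [← hh1, hx, map_zero])
        lam_ne := hlam
        sp := fun e he => by
          have hge : glEquiv (glEquiv.symm (e.restrictScalars F)) = e.restrictScalars F :=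
            MulEquiv.apply_symm_apply _ _
          set g := glEquiv.symm (e.restrictScalars F)
          have hgv : ∀ y, (g : Matrix _ _ F) *ᵥ y = e y := fun y => by
            rw [← glEquiv_apply, hge]
            rfl
          rw [← hge, hmem]
          refine hHM ⟨(mem_normalizer_iff hK g).2 fun k hk => ⟨k, hk, fun y => ?_⟩,
            mem_spGL.2 fun x y => ?_⟩
          · rw [hgv, hgv]
            exact map_smul e ⟨k, hk⟩ y
          · rw [hgv, hgv]
            change f _ _ = f _ _
            rw [← hh1, he, hh1]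
        iso := fun e he x y => by
          obtain ⟨g, hg, rfl⟩ := he
          rw [hh1, hh1]
          exact mem_spGL.1 (hMG hg) x y }
    by_cases hlin : OnlyLinear h M'
    · refine Or.inl (le_antisymm (fun g hg => ⟨?_, hMG hg⟩) hHM)
      have hs := mem_semiLin_of_lines (L := K) (by omega)
        (fun x l => H.smul_mem_lineF hlin hn ((hmem g).2 hg) x l)
      refine (mem_normalizer_iff hK _).2 ?_
      intro k hk
      obtain ⟨l, hl⟩ := hs ⟨k, hk⟩
      exact ⟨l, l.2, fun y => hl y⟩
    · refine Or.inr (le_antisymm hMG (spGL_le_of_sympT_mem M fun v c => ?_))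
      simp only [OnlyLinear, not_forall, not_exists] at hlin
      obtain ⟨τ, a, ha, hin, hne⟩ := hlin
      obtain ⟨e, he, hev⟩ := H.inM_transF_of_twist (hfr.symm ▸ hr) hn ha hin hne c v
      have : glEquiv (sympT hf v c) = e := LinearEquiv.ext fun x => by
        rw [glEquiv_apply, sympT_mulVec, hev, transF_apply, hh1]
      exact (hmem _).1 (this.symm ▸ he)

end CfsgLib.FormExt91
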